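import Mathlib
import Cfsg.Agent.Lib.Leech.Charact

/-!
Conway's characterisation of the Leech lattice, abstract form.
-/

set_option autoImplicit false

namespace CfsgLib.Leech

open Cfsg Finset LeechCfg
open scoped Pointwise

variable {M : Type*} [AddCommGroup M] {β : M →ₗ[ℤ] M →ₗ[ℤ] ℤ}

theorem exists_frame (h : Rootless β) (b : Module.Basis (Fin 24) ℤ M)
    (h4 : {x : M | β x x = 4}.ncard = 196560) (h6 : {x : M | β x x = 6}.ncard = 16773120)
    (h8 : {x : M | β x x = 8}.ncard = 398034000) :
    ∃ x : GolayPt → M, (∀ i, β (x i) (x i) = 8) ∧ (∀ i j, i ≠ j → β (x i) (x j) = 0) ∧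
      ∀ i j, ∃ z, x i - x j = (2 : ℤ) • z := by
  classical
  have : Module.Finite ℤ M := Module.Finite.of_basis b
  have hrank : Module.finrank ℤ M = 24 := by simpa using Module.finrank_eq_card_basis b
  obtain ⟨x0, hx0⟩ : {x : M | β x x = 8}.Nonempty := Set.nonempty_of_ncard_ne_zero (by omega)
  have h48 := (h.frames b h4 h6 h8).2 x0 hx0
  have hfin : {y : M | β y y = 8 ∧ ∃ z, x0 - y = (2 : ℤ) • z}.Finite :=
    Set.finite_of_ncard_ne_zero (by omega)
  set F := hfin.toFinset with hF
  have hmem : ∀ y, y ∈ F ↔ β y y = 8 ∧ ∃ z, x0 - y = (2 : ℤ) • z := fun y => by simp [hF]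
  have hc : F.card = 48 := by rw [← h48, Set.ncard_eq_toFinset_card _ hfin]
  have hcong : ∀ x ∈ F, ∀ y ∈ F, ∃ z, x - y = (2 : ℤ) • z := by
    intro x hx y hy
    obtain ⟨-, z, hz⟩ := (hmem x).1 hx
    obtain ⟨-, w, hw⟩ := (hmem y).1 hy
    exact ⟨w - z, by rw [smul_sub, ← hz, ← hw]; abel⟩
  have h1 : ∀ x ∈ F, ∀ y ∈ F, y = x ∨ y = -x ∨ β x y = 0 := by
    intro x hx y hy
    obtain ⟨z, hz⟩ := hcong x hx y hy
    exact (h.congr_short ((hmem x).1 hx).1.le ((hmem y).1 hy).1.le hz).imp_right
      (Or.imp_right fun h => h.2.2)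
  obtain ⟨r⟩ : Nonempty (LinearOrder M) := ⟨(WellOrderingRel.isWellOrder (α := M)).linearOrder _⟩
  have key : ∃ T ⊆ F, 24 ≤ T.card ∧ ∀ x ∈ T, ∀ y ∈ T, x ≠ y → β x y = 0 := by
    let T1 := F.filter (fun y => y < -y)
    let T2 := F.filter (fun y => -y < y)
    have hsub : F ⊆ T1 ∪ T2 := by
      intro x hx
      rcases lt_trichotomy x (-x) with e | e | e
      · exact mem_union_left _ (mem_filter.mpr ⟨hx, e⟩)
      · exfalso
        have h2 := ((hmem x).1 hx).1
        have : β x x = - β x x := by
          conv_lhs => rw [show β x x = β x (-x) by rw [← e]]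
          rw [map_neg]
        omega
      · exact mem_union_right _ (mem_filter.mpr ⟨hx, e⟩)
    have := card_le_card hsub
    have := card_union_le T1 T2
    by_cases h2 : 24 ≤ T1.card
    · refine ⟨T1, filter_subset _ _, h2, fun x hx y hy hxy => ?_⟩
      obtain ⟨hx1, hx2⟩ := mem_filter.mp hx
      obtain ⟨hy1, hy2⟩ := mem_filter.mp hy
      rcases h1 x hx1 y hy1 with e | e | e
      · exact absurd e.symm hxy
      · subst e; rw [neg_neg] at hy2; exact absurd hx2 (not_lt.mpr hy2.le)
      · exact e
    · refine ⟨T2, filter_subset _ _, by omega, fun x hx y hy hxy => ?_⟩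
      obtain ⟨hx1, hx2⟩ := mem_filter.mp hx
      obtain ⟨hy1, hy2⟩ := mem_filter.mp hy
      rcases h1 x hx1 y hy1 with e | e | e
      · exact absurd e.symm hxy
      · subst e; rw [neg_neg] at hy2; exact absurd hx2 (not_lt.mpr hy2.le)
      · exact e
  obtain ⟨T, hT, h2, h3⟩ := key
  obtain ⟨T', h4, h5⟩ := exists_subset_card_eq h2
  let e : GolayPt ≃ T' := Fintype.equivOfCardEq (by rw [card_pt, Fintype.card_coe, h5])
  refine ⟨fun i => e i, fun i => ((hmem _).1 (hT (h4 (e i).2))).1, fun i j hij => ?_,
    fun i j => hcong _ (hT (h4 (e i).2)) _ (hT (h4 (e j).2))⟩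
  exact h3 _ (h4 (e i).2) _ (h4 (e j).2) fun h => hij (e.injective (Subtype.ext h))

theorem exists_iso_leech (h : Rootless β) (b : Module.Basis (Fin 24) ℤ M)
    (h4 : {x : M | β x x = 4}.ncard = 196560) (h6 : {x : M | β x x = 6}.ncard = 16773120)
    (h8 : {x : M | β x x = 8}.ncard = 398034000) :
    ∃ f : M ≃+ leechLattice, ∀ x, sqNorm (f x).1 = 8 * β x x := by
  classical
  have : Module.Finite ℤ M := Module.Finite.of_basis b
  have hrank : Module.finrank ℤ M = 24 := by simpa using Module.finrank_eq_card_basis b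
  obtain ⟨x, hx8, hx0, hxc⟩ := exists_frame h b h4 h6 h8
  have hxx : ∀ i j, β (x i) (x j) = if j = i then 8 else 0 := by
    intro i j
    split_ifs with e
    · rw [e, hx8]
    · exact hx0 _ _ (Ne.symm e)
  let f : M →+ (GolayPt → ℤ) :=
    { toFun := fun v i => β v (x i)
      map_zero' := by funext i; simp
      map_add' := fun v w => by funext i; simp }
  have hf : ∀ v i, f v i = β v (x i) := fun _ _ => rfl
  have hxinj : Function.Injective x := by
    intro i j e
    by_contra hne
    have := hx0 i j hne
    rw [e, hx8] at this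
    omega
  have hpars : ∀ v, sqNorm (f v) = 8 * β v v := by
    intro v
    let r : M := (8 : ℤ) • v - ∑ i, β v (x i) • x i
    have hr : ∀ j, β r (x j) = 0 := by
      intro j
      simp only [r, map_sub, map_smul, map_sum, LinearMap.sub_apply, LinearMap.smul_apply,
        LinearMap.coe_sum, Finset.sum_apply, smul_eq_mul, hxx, mul_ite, mul_zero, sum_ite_eq,
        mem_univ, if_true]
      ring
    have hr0 : r = 0 := by
      by_contra hne
      have hnot : r ∉ univ.image x := by
        intro hm
        obtain ⟨i, -, hi⟩ := mem_image.1 hm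
        have := hr i
        rw [← hi, hx8] at this
        omega
      have := card_le_finrank_of_orthogonal (β := β) (insert r (univ.image x)) (by
        intro y hy
        rcases mem_insert.1 hy with rfl | hy
        · exact (h.pos _ hne).ne'
        · obtain ⟨i, -, rfl⟩ := mem_image.1 hy
          rw [hx8]; norm_num) (by
        intro y hy z hz hyz
        rcases mem_insert.1 hy with rfl | hy <;> rcases mem_insert.1 hz with rfl | hz
        · exact absurd rfl hyz
        · obtain ⟨i, -, rfl⟩ := mem_image.1 hz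
          exact hr i
        · obtain ⟨i, -, rfl⟩ := mem_image.1 hy
          rw [h.symm]; exact hr i
        · obtain ⟨i, -, rfl⟩ := mem_image.1 hy
          obtain ⟨j, -, rfl⟩ := mem_image.1 hz
          exact hx0 _ _ fun e => hyz (by rw [e]))
      rw [card_insert_of_notMem hnot, card_image_of_injective _ hxinj, card_univ, card_pt] at this
      omega
    have h1 := congrArg (β v) hr0
    simp only [r, map_sub, map_smul, map_sum, smul_eq_mul, map_zero] at h1
    simp only [sqNorm, hf, sq]
    omega
  have hinj : Function.Injective f := by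
    rw [injective_iff_map_eq_zero]
    intro v hv
    by_contra hne
    have h1 := h.pos v hne
    have h2 := hpars v
    rw [hv] at h2
    simp [sqNorm] at h2
    omega
  have hL : PreLeech f.range := by
    refine ⟨mem_of_four_gens _ none fun i => ?_, ?_, ?_, ?_, ?_⟩
    · obtain ⟨z, hz⟩ := hxc i none
      refine ⟨z + x none, funext fun k => ?_⟩
      have h1 := congrArg (fun v => β v (x k)) hz
      simp only [map_sub, map_smul, LinearMap.sub_apply, LinearMap.smul_apply, smul_eq_mul,
        hxx] at h1
      simp only [hf, map_add, LinearMap.add_apply, hxx, Pi.add_apply, Pi.single_apply]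
      split_ifs at h1 ⊢ <;> omega
    · rintro _ ⟨v, rfl⟩
      have h1 : ∀ i, f v i % 2 = f v none % 2 := by
        intro i
        obtain ⟨z, hz⟩ := hxc i none
        have h1 := congrArg (β v) hz
        simp only [map_sub, map_smul, smul_eq_mul] at h1
        simp only [hf]
        omega
      rcases Int.emod_two_eq_zero_or_one (f v none) with h2 | h2
      · exact Or.inl fun i => by rw [h1, h2]
      · exact Or.inr fun i => by rw [h1, h2]
    · rintro _ ⟨v, rfl⟩
      have := h.even v
      rw [hpars]; omega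
    · rintro _ ⟨v, rfl⟩ hv
      have := h.four_le (x := v) fun e => hv (by rw [e, map_zero])
      rw [hpars]; omega
    · rw [← h4, ← Set.ncard_image_of_injective _ hinj]
      congr 1
      ext y
      constructor
      · rintro ⟨⟨v, rfl⟩, hv⟩
        rw [hpars] at hv
        exact ⟨v, show β v v = 4 by omega, rfl⟩
      · rintro ⟨v, hv, rfl⟩
        have hv' : β v v = 4 := hv
        exact ⟨⟨v, rfl⟩, by rw [hpars]; omega⟩
  obtain ⟨π, s, hT⟩ := hL.exists_iso
  let g : M →+ leechLattice :=
    { toFun := fun v => ⟨sgn s (perm π (f v)), (hT _).1 ⟨v, rfl⟩⟩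
      map_zero' := Subtype.ext (by funext i; simp [sgn, perm])
      map_add' := fun v w => Subtype.ext (by
        show sgn s (perm π (f (v + w))) = _
        rw [map_add]; exact sgn_add s (perm π (f v)) (perm π (f w))) }
  have hg : ∀ v, sqNorm (g v).1 = 8 * β v v := fun v => by
    show sqNorm (sgn s (perm π (f v))) = _
    rw [sqNorm_sgn, sqNorm_perm, hpars]
  refine ⟨AddEquiv.ofBijective g ⟨?_, fun y => ?_⟩, hg⟩
  · rw [injective_iff_map_eq_zero]
    intro v hv
    by_contra hne
    have h1 := h.pos v hne
    have h2 := hg v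
    rw [hv] at h2
    simp [sqNorm] at h2
    omega
  · have hinv : sgn s (perm π (perm π.symm (sgn s y.1))) = y.1 := by
      funext i
      simp only [sgn, perm, Equiv.symm_symm, Equiv.apply_symm_apply]
      split_ifs <;> simp
    obtain ⟨v, hv⟩ := (hT (perm π.symm (sgn s y.1))).2 (by rw [hinv]; exact y.2)
    exact ⟨v, Subtype.ext (by show sgn s (perm π (f v)) = _; rw [hv, hinv])⟩

end CfsgLib.Leech
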