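import Mathlib
import Cfsg.Agent.Lib.Leech.CMcL.Orb

/-!
The rank 3 actions of `McL` on 275 and of `HS` on 100 points and the rank 4 action of `McL` on
2025 points.
-/

set_option autoImplicit false

namespace CfsgLib.Leech

open Cfsg Finset MulAction Spor
open scoped Pointwise

/-- The vector `(4, 0, 4, 0²¹)`. -/
noncomputable def leechX : leechLattice := toL 0xa42108421084210842108421084290

theorem leechX_spec : sqNorm leechX.1 = 32 ∧ dotInt leechV.1 leechX.1 = -24 ∧
    dotInt leechU.1 leechX.1 = 16 := by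
  have h : chkN 0xa42108421084210842108421084290 = true := by decide +kernel
  rw [leechX, sqNorm_toL h, dot_V_toL h, dot_U_toL h]; decide +kernel

theorem orbit_McL_X : {w | ∃ g ∈ stabilizer Co0 leechV ⊓ stabilizer Co0 leechU, g • leechX = w} =
    {x : leechLattice | sqNorm x.1 = 32 ∧ dotInt leechV.1 x.1 = -24 ∧ dotInt leechU.1 x.1 = 16} :=
  orbit_eq_of_le _ _ (finite_of_norm fun _ hx => hx.1) (fun g hg =>
    ⟨by rw [sqNorm_smul, leechX_spec.1], by rw [dot_smul_of_fix hg.1, leechX_spec.2.1],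
      by rw [dot_smul_of_fix hg.2, leechX_spec.2.2]⟩) (ncard_275 ▸ CMcL.le275)

/-- Normal form of the triples defining `PSU₄(3)`. -/
theorem exists_triple_X {u v x : leechLattice} (hu : sqNorm u.1 = 48) (hv : sqNorm v.1 = 32)
    (hx : sqNorm x.1 = 32) (h1 : dotInt u.1 v.1 = -24) (h2 : dotInt u.1 x.1 = -24)
    (h3 : dotInt v.1 x.1 = 16) : ∃ g : Co0, g • u = leechV ∧ g • v = leechU ∧ g • x = leechX := by
  obtain ⟨g, e1, e2⟩ := exists_pair_V_U hu hv h1
  obtain ⟨k, ⟨f1, f2⟩, f3⟩ : g • x ∈ {w | ∃ g ∈ stabilizer Co0 leechV ⊓ stabilizer Co0 leechU,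
      g • leechX = w} := by
    rw [orbit_McL_X]
    exact ⟨by rw [sqNorm_smul, hx], by rw [← e1, dotInt_smul, h2], by rw [← e2, dotInt_smul, h3]⟩
  exact ⟨k⁻¹ * g, by rw [mul_smul, e1]; exact inv_smul_eq_iff.2 (Eq.symm f1), by rw [mul_smul, e2]; exact inv_smul_eq_iff.2 (Eq.symm f2),
    by rw [mul_smul, ← f3, inv_smul_smul]⟩

theorem card_U43 : Nat.card ↥(stabilizer Co0 leechV ⊓ stabilizer Co0 leechU ⊓
    stabilizer Co0 leechX) = 3265920 := by
  have := card_inf_stabilizer_mul (stabilizer Co0 leechV ⊓ stabilizer Co0 leechU) leechX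
  rw [card_McL, orbit_McL_X, ncard_275] at this
  exact Nat.eq_of_mul_eq_mul_right (by norm_num : 0 < 275) (this.trans (by norm_num))

/-- Orbit decomposition of a set of minimal vectors with two prescribed inner products under the
stabiliser of three vectors. -/
theorem partition_three {r : ℕ} {u v x : leechLattice} {s t : ℤ} (y : Fin r → leechLattice)
    (k : Fin r → ℤ) (hk : Function.Injective k) (a : Fin r → ℕ)
    (hy : ∀ i, sqNorm (y i).1 = 32 ∧ dotInt u.1 (y i).1 = s ∧ dotInt v.1 (y i).1 = t ∧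
      dotInt x.1 (y i).1 = k i)
    (ha : ∀ i, a i ≤ {w | ∃ g ∈ stabilizer Co0 u ⊓ stabilizer Co0 v ⊓ stabilizer Co0 x,
      g • y i = w}.ncard)
    (hs : {x : leechLattice | sqNorm x.1 = 32 ∧ dotInt u.1 x.1 = s ∧ dotInt v.1 x.1 = t}.ncard ≤
      ∑ i, a i) :
    (∀ i, {w | ∃ g ∈ stabilizer Co0 u ⊓ stabilizer Co0 v ⊓ stabilizer Co0 x, g • y i = w}.ncard =
      a i) ∧ (∀ i z, z ∈ {w | ∃ g ∈ stabilizer Co0 u ⊓ stabilizer Co0 v ⊓ stabilizer Co0 x,
        g • y i = w} ↔ (sqNorm z.1 = 32 ∧ dotInt u.1 z.1 = s ∧ dotInt v.1 z.1 = t) ∧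
          dotInt x.1 z.1 = k i) ∧
      ∀ z : leechLattice, sqNorm z.1 = 32 ∧ dotInt u.1 z.1 = s ∧ dotInt v.1 z.1 = t →
        ∃ i, dotInt x.1 z.1 = k i := by
  obtain ⟨h1, h2, h3⟩ := partition_of_le (X := {x : leechLattice | sqNorm x.1 = 32 ∧
    dotInt u.1 x.1 = s ∧ dotInt v.1 x.1 = t}) (finite_of_norm fun _ hx => hx.1)
    (fun z => dotInt x.1 z.1) k hk _ a (by
      rintro i _ ⟨g, ⟨⟨e1, e2⟩, e3⟩, rfl⟩
      exact ⟨⟨by rw [sqNorm_smul, (hy i).1], by rw [dot_smul_of_fix e1, (hy i).2.1],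
        by rw [dot_smul_of_fix e2, (hy i).2.2.1]⟩, by rw [dot_smul_of_fix e3, (hy i).2.2.2]⟩) ha hs
  refine ⟨h1, h2, fun z hz => ?_⟩
  obtain ⟨i, hi⟩ := h3 z hz
  exact ⟨i, ((h2 i z).1 hi).2⟩

theorem one_le_ncard_orbit (H : Subgroup Co0) (v : leechLattice) :
    1 ≤ {w | ∃ g ∈ H, g • v = w}.ncard :=
  (Set.ncard_pos (finite_of_norm (n := sqNorm v.1) (by
    rintro _ ⟨g, -, rfl⟩; exact sqNorm_smul g v))).2 ⟨v, 1, H.one_mem, one_smul _ _⟩

theorem eq_of_dot_eq {x y : leechLattice} (hx : sqNorm x.1 = 32) (hy : sqNorm y.1 = 32)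
    (h : dotInt x.1 y.1 = 32) : y = x := by
  have : sqNorm (x.1 - y.1) = 0 := by rw [sqNorm_sub, hx, hy, h]; norm_num
  exact Subtype.ext (sub_eq_zero.1 (sqNorm_eq_zero this)).symm

/-- Representatives of the orbits of `PSU₄(3)` on the 275 points. -/
noncomputable def rep275 : Fin 3 → leechLattice :=
  ![leechX, toL 0x94210842108421094a1084a5284a12, toL 0xa42108421084210842108421085210]

theorem part275 :
    (∀ i, {w | ∃ g ∈ stabilizer Co0 leechV ⊓ stabilizer Co0 leechU ⊓ stabilizer Co0 leechX,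
      g • rep275 i = w}.ncard = ![1, 112, 162] i) ∧
    (∀ i z, z ∈ {w | ∃ g ∈ stabilizer Co0 leechV ⊓ stabilizer Co0 leechU ⊓ stabilizer Co0 leechX,
        g • rep275 i = w} ↔ (sqNorm z.1 = 32 ∧ dotInt leechV.1 z.1 = -24 ∧ dotInt leechU.1 z.1 = 16) ∧
          dotInt leechX.1 z.1 = ![32, 8, 16] i) ∧
      ∀ z : leechLattice, sqNorm z.1 = 32 ∧ dotInt leechV.1 z.1 = -24 ∧ dotInt leechU.1 z.1 = 16 →
        ∃ i, dotInt leechX.1 z.1 = ![32, 8, 16] i := by
  refine partition_three _ _ (by decide) _ (fun i => ?_) (fun i => ?_) (by rw [ncard_275]; decide)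
  · have h0 : chkN 0xa42108421084210842108421084290 = true := by decide +kernel
    have h1 : chkN 0x94210842108421094a1084a5284a12 = true := by decide +kernel
    have h2 : chkN 0xa42108421084210842108421085210 = true := by decide +kernel
    fin_cases i <;> simp only [rep275, leechX, Fin.zero_eta, Fin.mk_one, Fin.reduceFinMk,
      Matrix.cons_val, sqNorm_toL, dot_V_toL, dot_U_toL, dot_toL_toL, h0, h1, h2] <;> decide +kernel
  · fin_cases i
    exacts [one_le_ncard_orbit _ _, CMcL.le112, CMcL.le162]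

/-- Representatives of the orbits of `M₂₂` on the 2025 points. -/
noncomputable def rep2025 : Fin 4 → leechLattice :=
  ![leechU', toL 0x842108421084250942128425294a50, toL 0x94210842108421094a1084a5283a0e,
    toL 0x8c62f8c5ef7bdf18c6318c6318ce2f]

theorem part2025 :
    (∀ i, {w | ∃ g ∈ stabilizer Co0 leechV ⊓ stabilizer Co0 leechU ⊓ stabilizer Co0 leechU',
      g • rep2025 i = w}.ncard = ![1, 330, 462, 1232] i) ∧
    (∀ i z, z ∈ {w | ∃ g ∈ stabilizer Co0 leechV ⊓ stabilizer Co0 leechU ⊓ stabilizer Co0 leechU',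
        g • rep2025 i = w} ↔ (sqNorm z.1 = 32 ∧ dotInt leechV.1 z.1 = -16 ∧ dotInt leechU.1 z.1 = 0) ∧
          dotInt leechU'.1 z.1 = ![32, 0, 16, 8] i) ∧
      ∀ z : leechLattice, sqNorm z.1 = 32 ∧ dotInt leechV.1 z.1 = -16 ∧ dotInt leechU.1 z.1 = 0 →
        ∃ i, dotInt leechU'.1 z.1 = ![32, 0, 16, 8] i := by
  refine partition_three _ _ (by decide) _ (fun i => ?_) (fun i => ?_) (by rw [ncard_2025]; decide)
  · have h0 : chkN 0x842108421084250942128425294a50 = true := by decide +kernel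
    have h1 : chkN 0x94210842108421094a1084a5283a0e = true := by decide +kernel
    have h2 : chkN 0x8c62f8c5ef7bdf18c6318c6318ce2f = true := by decide +kernel
    fin_cases i <;> simp only [rep2025, Fin.zero_eta, Fin.mk_one, Fin.reduceFinMk,
      Matrix.cons_val, sqNorm_toL, dot_V_toL, dot_U_toL, dot_U'_toL, h0, h1, h2] <;> decide +kernel
  · fin_cases i
    exacts [one_le_ncard_orbit _ _, CMcL.le330, CMcL.le462, CMcL.le1232]

/-- Representatives of the orbits of `M₂₂` on the 100 points. -/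
noncomputable def rep100 : Fin 3 → leechLattice :=
  ![leechU, toL 0x8c6318c6318c6318c6318c6318c5b1, toL 0x94210842108421094a1084a5284a12]

theorem part100 :
    (∀ i, {w | ∃ g ∈ stabilizer Co0 leechV ⊓ stabilizer Co0 leechU' ⊓ stabilizer Co0 leechU,
      g • rep100 i = w}.ncard = ![1, 22, 77] i) ∧
    (∀ i z, z ∈ {w | ∃ g ∈ stabilizer Co0 leechV ⊓ stabilizer Co0 leechU' ⊓ stabilizer Co0 leechU,
        g • rep100 i = w} ↔ (sqNorm z.1 = 32 ∧ dotInt leechV.1 z.1 = -24 ∧ dotInt leechU'.1 z.1 = 0) ∧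
          dotInt leechU.1 z.1 = ![32, 8, 16] i) ∧
      ∀ z : leechLattice, sqNorm z.1 = 32 ∧ dotInt leechV.1 z.1 = -24 ∧ dotInt leechU'.1 z.1 = 0 →
        ∃ i, dotInt leechU.1 z.1 = ![32, 8, 16] i := by
  refine partition_three _ _ (by decide) _ (fun i => ?_) (fun i => ?_) (by rw [ncard_100]; decide)
  · have h0 : chkN 0x8c6318c6318c6318c6318c6318c5b1 = true := by decide +kernel
    have h1 : chkN 0x94210842108421094a1084a5284a12 = true := by decide +kernel
    fin_cases i <;> simp only [rep100, Fin.zero_eta, Fin.mk_one, Fin.reduceFinMk,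
      Matrix.cons_val, sqNorm_toL, dot_V_toL, dot_U_toL, dot_U'_toL, h0, h1] <;> decide +kernel
  · rw [inf_right_comm]
    fin_cases i
    exacts [one_le_ncard_orbit _ _, CMcL.le22, CMcL.le77]

end CfsgLib.Leech
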